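import Cfsg.Agent.H387.RB.Inst
import Cfsg.Agent.H980.RB.Trace
import Cfsg.Agent.H210.F43.TabAll
import Cfsg.Agent.H186.F43.Mzero
import Cfsg.Agent.H625.RB.Fix12
import Cfsg.Agent.H194.RB.Inv
import Cfsg.Agent.H358.RB.Conj

/-!
# The ratio bound `11 |χ(g)| < χ(1)` in `F₄(3)` (S2464, `F₄(3)`; helper387)

`ρ` a representation of `F₄(3)` over `ℂ` without fixed vectors, `V ≠ 0`:

* `ratio_QQ` : `11 ‖tr q‖ < dim V` for `q ∈ QQ ∖ ⟨z⟩`;
* `ratio_PP` : the same for `g ∈ PP` with `ff g ≠ 1` such that `g` is conjugate to `g z` under `QQ` or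
  `|FixX g| ≤ 3⁹`.
-/

set_option autoImplicit false

namespace Cfsg.Agent.H387.RB

open Module Cfsg.Agent.H700.F43 Cfsg.Agent.H323.Pw Cfsg.Agent.H92.RB Cfsg.Agent.H980.RB

section Abs

universe u v

variable {G : Type u} [Group G] {V : Type v} [AddCommGroup V] [Module ℂ V]

theorem eigM_one (ρ : Representation ℂ G V) (z : G) : eigM ρ z 1 = fixM ρ {z} := by
  ext v
  rw [mem_eigM, mem_fixM, one_smul]
  constructor
  · rintro h g rfl
    exact h
  · intro h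
    exact h z rfl

theorem fx_eq (ρ : Representation ℂ G V) (S : Set G) : Cfsg.Agent.H186.F43.fx ρ S = fixM ρ S := rfl

theorem norm_le_of_FT {x : ℂ} {y B : ℝ} (h : x = (y : ℂ)) (hB : |y| ≤ B) : ‖x‖ ≤ B := by
  rw [h, Complex.norm_real]
  exact hB

/-- the numerical data of a representation -/
structure Num (n a m : ℝ) : Prop where
  m_nonneg : 0 ≤ m
  m_le : m ≤ 13 / 243 * ((n - a) / 2)
  root : a - (n - a) / 2 ≤ m + 37 / 280 * (a - m)

theorem num_Q {n a m : ℝ} (hn : 0 < n) (h : Num n a m) : 11 * (m + 37 / 280 * (a - m)) < n := by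
  obtain ⟨h1, h2, h3⟩ := h
  linarith

theorem num_fix {n a m : ℝ} (hn : 0 < n) (h : Num n a m) :
    11 * ((1 / 27) ^ 2 * a + (m + 37 / 280 * (a - m)) + (n - a) * (1 / 27)) < n := by
  obtain ⟨h1, h2, h3⟩ := h
  linarith

theorem num_conj {n a m : ℝ} (hn : 0 < n) (h : Num n a m) :
    11 * (1 / 27 * a + (m + 37 / 280 * (a - m))) < n := by
  obtain ⟨h1, h2, h3⟩ := h
  linarith

end Abs

section Main

universe v

variable {V : Type v} [AddCommGroup V] [Module ℂ V] [FiniteDimensional ℂ V]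

/-- `a = dim V^z` -/
noncomputable abbrev aa (ρ : Representation ℂ Gm V) : ℝ := (finrank ℂ ↥(fixM ρ {xp 47}) : ℝ)

/-- `m₀ = dim V^QQ` -/
noncomputable abbrev mm0 (ρ : Representation ℂ Gm V) : ℝ := (finrank ℂ ↥(fixM ρ (QQ : Set Gm)) : ℝ)

theorem inv_D (ρ : Representation ℂ Gm V) : Inv (Dm frG ρ) :=
  inv_Dm frG ρ fun _ _ h u v => Cfsg.Agent.H194.RB.BB_act h u v

theorem D_zero (ρ : Representation ℂ Gm V) : Dm frG ρ 0 = mm0 ρ := Dm_zero frG ρ

theorem AA_D (ρ : Representation ℂ Gm V) : AA (Dm frG ρ) = aa ρ - mm0 ρ := AA_Dm frG ρ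

/-- the trace of `z` -/
theorem trace_zp (ρ : Representation ℂ Gm V) :
    LinearMap.trace ℂ V (ρ (xp 47)) = (((3 * aa ρ - finrank ℂ V) / 2 : ℝ) : ℂ) := by
  have h := trace_z frG ρ (trace_zp2 ρ)
  push_cast
  linear_combination (-1 / 2 : ℂ) * h

/-- on `QQ ∖ ⟨z⟩` -/
theorem norm_QQ (ρ : Representation ℂ Gm V) {q : Gm} (hq : q ∈ QQ) (hz : q ∉ Subgroup.zpowers (xp 47)) :
    ‖LinearMap.trace ℂ V (ρ q)‖ ≤ mm0 ρ + 37 / 280 * (aa ρ - mm0 ρ) := by
  have h1 : kap q ≠ 0 := fun h => hz ((frG.ker q hq).1 h)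
  have h2 := Cfsg.Agent.H210.F43.tab_all (Dm frG ρ) (Dm_nonneg frG ρ) (inv_D ρ) h1
  rw [D_zero, AA_D] at h2
  exact norm_le_of_FT (trace_eq_FT frG ρ hq hz) h2

theorem kap_24 : kap (xp 24) = Pi.single 0 1 := kap_xp 0

theorem trace_24 (ρ : Representation ℂ Gm V) : LinearMap.trace ℂ V (ρ (xp 24)) = LinearMap.trace ℂ V (ρ (xp 47)) := by
  obtain ⟨w, hw⟩ := Cfsg.Agent.H358.RB.exists_w
  rw [← hw]
  exact (trace_conj ρ w (xp 24)).symm

theorem xp24_mem : xp 24 ∈ QQ := xp_mem (ord14_mem 0)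

theorem xp24_not : xp 24 ∉ Subgroup.zpowers (xp 47) := by
  intro h
  have h1 := (frG.ker _ xp24_mem).2 h
  rw [kap_24] at h1
  have h2 := congrFun h1 0
  rw [Pi.single_eq_same, Pi.zero_apply] at h2
  exact one_ne_zero h2

/-- **the numerical data** -/
theorem num (ρ : Representation ℂ Gm V) (h : Cfsg.Agent.H186.F43.fx ρ Set.univ = ⊥) :
    Num (finrank ℂ V : ℝ) (aa ρ) (mm0 ρ) := by
  refine ⟨Nat.cast_nonneg _, ?_, ?_⟩
  · have h1 := Cfsg.Agent.H186.F43.m0_le ρ h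
    rw [trace_zp, Complex.ofReal_re, fx_eq] at h1
    have h2 : ((finrank ℂ V : ℝ) - (3 * aa ρ - finrank ℂ V) / 2) / 3 = (finrank ℂ V - aa ρ) / 2 := by ring
    rw [h2] at h1
    exact h1
  · have h1 := (Cfsg.Agent.H210.F43.tab_root (Dm frG ρ) (Dm_nonneg frG ρ) (inv_D ρ)).2
    have h2 := trace_eq_FT frG ρ xp24_mem xp24_not
    rw [trace_24, trace_zp, kap_24] at h2
    have h3 := Complex.ofReal_injective h2
    rw [← h3, D_zero, AA_D] at h1
    linarith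

/-- **The ratio bound on `QQ ∖ ⟨z⟩`** -/
theorem ratio_QQ (ρ : Representation ℂ Gm V) (h : Cfsg.Agent.H186.F43.fx ρ Set.univ = ⊥) (hn : 0 < finrank ℂ V)
    {q : Gm} (hq : q ∈ QQ) (hz : q ∉ Subgroup.zpowers (xp 47)) :
    11 * ‖LinearMap.trace ℂ V (ρ q)‖ < finrank ℂ V := by
  have h1 := num_Q (Nat.cast_pos.2 hn) (num ρ h)
  have h2 := norm_QQ ρ hq hz
  linarith

end Main

section Par

universe v

variable {V : Type v} [AddCommGroup V] [Module ℂ V] [FiniteDimensional ℂ V]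

theorem fixM_sub (ρ : Representation ℂ Gm V) :
    eigM ((ρ.comp PP.subtype : Representation ℂ ↥PP V)) zP 1 = fixM ρ {xp 47} := by
  rw [eigM_one]
  ext v
  rw [mem_fixM, mem_fixM]
  constructor
  · rintro h g rfl
    exact h zP rfl
  · rintro h g rfl
    exact h _ rfl

theorem card_ker : (Nat.card ↥ff.ker : ℝ) = 3 ^ 15 := by
  have h := card_Q frP
  exact_mod_cast h

theorem zp_of {q : ↥PP} (h : (q : Gm) ∈ Subgroup.zpowers (xp 47)) : q ∈ Subgroup.zpowers zP := (zpow_iff z_mem).2 h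

theorem hB (ρ : Representation ℂ Gm V) (q : ↥PP) (hq : q ∈ ff.ker) (hz : q ∉ Subgroup.zpowers zP) :
    ‖LinearMap.trace ℂ V ((ρ.comp PP.subtype : Representation ℂ ↥PP V) q)‖ ≤ mm0 ρ + 37 / 280 * (aa ρ - mm0 ρ) :=
  norm_QQ ρ (ker_mem.1 hq) fun h => hz (zp_of h)

theorem B_nonneg (ρ : Representation ℂ Gm V) : 0 ≤ mm0 ρ + 37 / 280 * (aa ρ - mm0 ρ) :=
  (norm_nonneg _).trans (norm_QQ ρ xp24_mem xp24_not)

/-- **The ratio bound on `PP`** -/
theorem ratio_PP (ρ : Representation ℂ Gm V) (h : Cfsg.Agent.H186.F43.fx ρ Set.univ = ⊥) (hn : 0 < finrank ℂ V)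
    (g : ↥PP) (hg : ff g ≠ 1)
    (hc : (∃ y ∈ ff.ker, y * g * y⁻¹ = g * zP) ∨ Nat.card (FixX ff.ker zP g) ≤ 3 ^ 9) :
    11 * ‖LinearMap.trace ℂ V (ρ (g : Gm))‖ < finrank ℂ V := by
  have hn' : (0 : ℝ) < finrank ℂ V := Nat.cast_pos.2 hn
  have hN := num ρ h
  have key : ‖LinearMap.trace ℂ V ((ρ.comp PP.subtype : Representation ℂ ↥PP V) g)‖ =
    ‖LinearMap.trace ℂ V (ρ (g : Gm))‖ := rfl
  rcases hc with ⟨y, hy, hyg⟩ | hc
  · have h1 : (Nat.card (FixX ff.ker zP g) : ℝ) ≤ 1 / 27 * Nat.card ↥ff.ker := by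
      rw [card_ker]
      have h2 : (Nat.card (FixX ff.ker zP g) : ℝ) ≤ 3 ^ 12 := by exact_mod_cast Cfsg.Agent.H625.RB.fix12 g hg
      refine h2.trans ?_
      norm_num
    have h3 : y * g * y⁻¹ * g⁻¹ = zP := by
      rw [hyg, mul_inv_eq_iff_eq_mul]
      exact (xs_ff dat).central g
    have h4 := tr_conj_gen (xs_ff dat) (ρ.comp PP.subtype : Representation ℂ ↥PP V) g (B_nonneg ρ) (hB ρ) h1
      (x := y) (by rw [h3]; exact Subgroup.mem_zpowers _) (by rw [h3]; exact frP.z_ne)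
    rw [fixM_sub, key] at h4
    have h5 := num_conj hn' hN
    linarith
  · have h1 : (Nat.card (FixX ff.ker zP g) : ℝ) ≤ (1 / 27) ^ 2 * Nat.card ↥ff.ker := by
      rw [card_ker]
      have h2 : (Nat.card (FixX ff.ker zP g) : ℝ) ≤ 3 ^ 9 := by exact_mod_cast hc
      refine h2.trans ?_
      norm_num
    have h4 := tr_fix_gen (xs_ff dat) (ρ.comp PP.subtype : Representation ℂ ↥PP V) g (B_nonneg ρ) (hB ρ)
      (s := 1 / 27) (by norm_num) h1
    rw [fixM_sub, key] at h4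
    have h5 := num_fix hn' hN
    linarith

end Par

end Cfsg.Agent.H387.RB
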